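/-
The abstract part of the construction of a subgroup from a labelled group acting on points.
-/
import Mathlib

set_option autoImplicit false

namespace Cfsg.Agent.Lib.J2U

open MulAction

theorem closure_left_ind {G : Type*} [Group G] [Finite G] (T : Set G) (p : G → Prop) (h1 : p 1)
    (hs : ∀ t ∈ T, ∀ y, p y → p (t * y)) : ∀ z ∈ Subgroup.closure T, p z := by
  intro z hz
  induction hz using Subgroup.closure_induction_left with
  | one => exact h1
  | mul_left x hx y _ ih => exact hs x hx y ih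
  | inv_mul_cancel x hx y _ ih =>
    have hord : x⁻¹ = x ^ (orderOf x - 1) := by
      have h0 : 0 < orderOf x := orderOf_pos x
      have h2 : x ^ (orderOf x - 1) * x = 1 := by
        rw [← pow_succ, Nat.sub_add_cancel h0, pow_orderOf_eq_one]
      exact (eq_inv_of_mul_eq_one_left h2).symm
    rw [hord]
    generalize orderOf x - 1 = n
    induction n with
    | zero => simpa using ih
    | succ n ihn =>
      rw [pow_succ', mul_assoc]
      exact hs x hx _ ihn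

section Lab

variable {S G Ω : Type*} [Group S] [Group G] [Finite S] [Finite G]
  (ρ : G →* Equiv.Perm Ω) (Pt : ℕ → Ω) (n N m i0 : ℕ)
  (e : ℕ → S) (idx : S → ℕ) (γ : ℕ → S) (nx : ℕ → ℕ → ℕ)
  (Γ : ℕ → G) (Q : ℕ → ℕ → ℕ) (c : ℕ → ℕ) (dat : ℕ → ℕ → ℕ)

/-- The diagonal subgroup. -/
def diag : Subgroup (S × G) := Subgroup.closure {z | ∃ k < 2, z = (γ k, Γ k)}

theorem exists_sub
    (hfaith : ∀ x : G, (∀ a < n, ρ x (Pt a) = Pt a) → x = 1)
    (hPt : ∀ a < n, ∀ b < n, Pt a = Pt b → a = b)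
    (hidx : ∀ i < N, idx (e i) = i) (hidx' : ∀ g, idx g < N ∧ e (idx g) = g)
    (he0 : e i0 = 1) (hi0 : i0 < N) (hγ : ∀ k < 2, ∀ i < N, γ k * e i = e (nx k i))
    (hnx : ∀ k < 2, ∀ i < N, nx k i < N)
    (tree : ∀ P : ℕ → Prop, P i0 → (∀ j < N, ∀ k < 2, P j → P (nx k j)) → ∀ i < N, P i)
    (hΓ : ∀ k < 2, ∀ a < n, Q k a < n ∧ ρ (Γ k) (Pt a) = Pt (Q k a))
    (hd0 : ∀ j < m, dat i0 j = c j) (hdl : ∀ i < N, ∀ j < m, dat i j < n)
    (hdQ : ∀ k < 2, ∀ i < N, ∀ j < m, Q k (dat i j) = dat (nx k i) j)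
    (hsep : ∀ i < N, (∀ j < m, dat i j = c j) → i = i0)
    (hcov : ∀ a < n, ∃ i < N, ∃ j < m, dat i j = a) :
    ∃ H : Subgroup G, Nonempty (H ≃* S) ∧ (∀ k < 2, Γ k ∈ H) ∧
      ∀ p : G → Prop, p 1 → (∀ k < 2, ∀ y, p y → p (Γ k * y)) → ∀ h ∈ H, p h := by
  set D : Subgroup (S × G) := diag γ Γ with hD
  have hgen : ∀ k < 2, (γ k, Γ k) ∈ D := fun k hk => Subgroup.subset_closure ⟨k, hk, rfl⟩
  have hidx1 : idx 1 = i0 := by
    rw [← he0]
    exact hidx i0 hi0
  -- the invariant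
  have hinv : ∀ z ∈ D, ∀ j < m, ρ z.2 (Pt (c j)) = Pt (dat (idx z.1) j) := by
    apply closure_left_ind
    · intro j hj
      simp only [Prod.snd_one, Prod.fst_one, map_one, Equiv.Perm.one_apply]
      rw [hidx1, hd0 j hj]
    · rintro t ⟨k, hk, rfl⟩ y hy j hj
      obtain ⟨h1, h2⟩ := hidx' y.1
      have h3 : idx (γ k * y.1) = nx k (idx y.1) := by
        conv_lhs => rw [← h2]
        rw [hγ k hk _ h1, hidx _ (hnx k hk _ h1)]
      show ρ (Γ k * y.2) (Pt (c j)) = Pt (dat (idx (γ k * y.1)) j)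
      rw [map_mul, Equiv.Perm.mul_apply, hy j hj, h3, (hΓ k hk _ (hdl _ h1 j hj)).2, hdQ k hk _ h1 j hj]
  -- surjectivity
  have hsurj : ∀ i < N, ∃ x, (e i, x) ∈ D := by
    apply tree
    · refine ⟨1, ?_⟩
      rw [he0]
      exact D.one_mem
    · rintro j hj k hk ⟨x, hx⟩
      refine ⟨Γ k * x, ?_⟩
      rw [← hγ k hk j hj]
      exact D.mul_mem (hgen k hk) hx
  -- the first projection is injective
  have hfst : ∀ z ∈ D, z.1 = 1 → z.2 = 1 := by
    intro z hz h1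
    apply hfaith
    intro a ha
    obtain ⟨i, hi, j, hj, rfl⟩ := hcov a ha
    obtain ⟨y, hy⟩ := hsurj i hi
    have hm : (e i, y)⁻¹ * z * (e i, y) ∈ D := D.mul_mem (D.mul_mem (D.inv_mem hy) hz) hy
    have h2 := hinv _ hm j hj
    have h3 : ((e i, y)⁻¹ * z * (e i, y)).1 = 1 := by
      simp [h1]
    rw [h3, hidx1, hd0 j hj] at h2
    have h4 := hinv _ hy j hj
    rw [hidx i hi] at h4
    simp only [Prod.snd_mul, Prod.snd_inv, map_mul, map_inv, Equiv.Perm.mul_apply] at h2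
    rw [← h4]
    have h5 := congrArg (ρ y) h2
    simpa using h5
  -- the second projection is injective
  have hsnd : ∀ z ∈ D, z.2 = 1 → z.1 = 1 := by
    intro z hz h1
    obtain ⟨h2, h3⟩ := hidx' z.1
    have h4 : ∀ j < m, dat (idx z.1) j = c j := by
      intro j hj
      have h5 := hinv z hz j hj
      rw [h1, map_one, Equiv.Perm.one_apply] at h5
      have h6 : c j = dat i0 j := (hd0 j hj).symm
      have h7 : c j < n := by
        rw [h6]
        exact hdl i0 hi0 j hj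
      exact (hPt _ h7 _ (hdl _ h2 j hj) h5).symm
    have h8 := hsep _ h2 h4
    rw [← h3, h8, he0]
  let p1 : D →* S := (MonoidHom.fst S G).comp D.subtype
  let p2 : D →* G := (MonoidHom.snd S G).comp D.subtype
  have hp1 : Function.Bijective p1 := by
    constructor
    · rw [injective_iff_map_eq_one]
      intro z hz
      apply Subtype.ext
      exact Prod.ext hz (hfst z.1 z.2 hz)
    · intro s
      obtain ⟨h2, h3⟩ := hidx' s
      obtain ⟨x, hx⟩ := hsurj _ h2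
      refine ⟨⟨_, hx⟩, ?_⟩
      exact h3
  have hp2 : Function.Injective p2 := by
    rw [injective_iff_map_eq_one]
    intro z hz
    apply Subtype.ext
    exact Prod.ext (hsnd z.1 z.2 hz) hz
  refine ⟨p2.range, ⟨(MonoidHom.ofInjective hp2).symm.trans (MulEquiv.ofBijective p1 hp1)⟩, ?_, ?_⟩
  · intro k hk
    exact ⟨⟨_, hgen k hk⟩, rfl⟩
  · rintro p h1 hs _ ⟨z, rfl⟩
    have key : ∀ z ∈ D, p z.2 := by
      apply closure_left_ind
      · exact h1
      · rintro t ⟨k, hk, rfl⟩ y hy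
        exact hs k hk _ hy
    exact key z.1 z.2

end Lab

section Orb

variable {G Ω : Type*} [Group G] [Finite G] (H : Subgroup G) (ρ : G →* Equiv.Perm Ω) (Y : ℕ → Set Ω)

/-- The block of an index. -/
def bk (t : ℕ) : ℕ := if t = 0 then 0 else if t < 37 then 1 else 2

/-- The root of a block. -/
def rt (t : ℕ) : ℕ := if t = 0 then 0 else if t < 37 then 1 else 37

theorem image_mul (g h : G) (A : Set Ω) : ρ (g * h) '' A = ρ g '' (ρ h '' A) := by
  rw [Set.image_image]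
  simp [map_mul, Equiv.Perm.mul_apply]

theorem orbits_abs
    (hindex : H.index = 100)
    (hinj : ∀ t < 100, ∀ t' < 100, Y t = Y t' → t = t')
    (hinv : ∀ h ∈ H, ∀ t < 100, ∃ t' < 100, bk t' = bk t ∧ ρ h '' Y t = Y t')
    (hreach : ∀ t < 100, ∃ h ∈ H, ρ h '' Y (rt t) = Y t)
    (g1 g2 : G) (hg1 : ρ g1 '' Y 0 = Y 1) (hg2 : ρ g2 '' Y 0 = Y 37) :
    ∃ c₁ c₂ : G ⧸ H, (orbit ↥H c₁).ncard = 36 ∧ (orbit ↥H c₂).ncard = 63 := by
  classical
  -- `H` fixes the base set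
  have hfix : ∀ h ∈ H, ρ h '' Y 0 = Y 0 := by
    intro h hh
    obtain ⟨t', ht', h1, h2⟩ := hinv h hh 0 (by norm_num)
    have : t' = 0 := by
      by_contra hne
      simp only [bk, if_neg hne] at h1
      split_ifs at h1 <;> simp at h1
    rw [h2, this]
  -- the map on cosets
  let F : G ⧸ H → Set Ω := fun c => ρ c.out '' Y 0
  have hF : ∀ g : G, F (g : G ⧸ H) = ρ g '' Y 0 := by
    intro g
    obtain ⟨h, hh⟩ := QuotientGroup.mk_out_eq_mul H g
    show ρ (g : G ⧸ H).out '' Y 0 = _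
    rw [hh, image_mul, hfix _ h.2]
  have hFs : ∀ (h : H) (g : G), F (h • (g : G ⧸ H)) = ρ h.1 '' (ρ g '' Y 0) := by
    intro h g
    have : h • (g : G ⧸ H) = ((h.1 * g : G) : G ⧸ H) := rfl
    rw [this, hF, image_mul]
  have hfinQ : Finite (G ⧸ H) := inferInstance
  -- an orbit and its family
  have key : ∀ (g : G) (r b : ℕ), r < 100 → bk r = b → rt r = r → ρ g '' Y 0 = Y r →
      F '' orbit ↥H (g : G ⧸ H) = (fun t => Y t) '' {t | t < 100 ∧ bk t = b} := by
    intro g r b hr hb hrr hg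
    ext A
    constructor
    · rintro ⟨_, ⟨h, rfl⟩, rfl⟩
      show F (h • (g : G ⧸ H)) ∈ _
      rw [hFs, hg]
      obtain ⟨t', ht', h1, h2⟩ := hinv h.1 h.2 r hr
      exact ⟨t', ⟨ht', h1.trans hb⟩, h2.symm⟩
    · rintro ⟨t, ⟨ht, hb'⟩, rfl⟩
      obtain ⟨h, hh, e⟩ := hreach t ht
      have hrt : rt t = r := by
        rw [← hrr]
        have h3 : bk t = bk r := hb'.trans hb.symm
        simp only [bk, rt] at h3 ⊢
        split_ifs at h3 ⊢ <;> simp_all
      refine ⟨_, ⟨⟨h, hh⟩, rfl⟩, ?_⟩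
      show F ((⟨h, hh⟩ : H) • (g : G ⧸ H)) = _
      rw [hFs, hg]
      show ρ h '' Y r = Y t
      rw [← e, hrt]
  have hcount : ∀ b : ℕ, ∀ M : ℕ, ((Finset.range 100).filter (fun t => bk t = b)).card = M →
      ((fun t => Y t) '' {t | t < 100 ∧ bk t = b}).ncard = M := by
    intro b M hM
    have hset : {t | t < 100 ∧ bk t = b} = ((Finset.range 100).filter (fun t => bk t = b) : Finset ℕ) := by
      ext t
      simp
    rw [hset, Set.ncard_image_of_injOn, Set.ncard_coe_finset, hM]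
    intro x hx y hy hxy
    have hx' : x < 100 := by
      simpa using (Finset.mem_filter.1 (Finset.mem_coe.1 hx)).1
    have hy' : y < 100 := by
      simpa using (Finset.mem_filter.1 (Finset.mem_coe.1 hy)).1
    exact hinj x hx' y hy' hxy
  have c1 : ((Finset.range 100).filter (fun t => bk t = 1)).card = 36 := by decide
  have c2 : ((Finset.range 100).filter (fun t => bk t = 2)).card = 63 := by decide
  have k1 := key g1 1 1 (by norm_num) (by decide) (by decide) hg1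
  have k2 := key g2 37 2 (by norm_num) (by decide) (by decide) hg2
  have l1 : 36 ≤ (orbit ↥H (g1 : G ⧸ H)).ncard := by
    have := Set.ncard_image_le (f := F) (Set.toFinite (orbit ↥H (g1 : G ⧸ H)))
    rwa [k1, hcount 1 36 c1] at this
  have l2 : 63 ≤ (orbit ↥H (g2 : G ⧸ H)).ncard := by
    have := Set.ncard_image_le (f := F) (Set.toFinite (orbit ↥H (g2 : G ⧸ H)))
    rwa [k2, hcount 2 63 c2] at this
  have hF1 : F ((1 : G) : G ⧸ H) = Y 0 := by
    rw [hF, map_one]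
    simp
  -- blocks of images
  have hb : ∀ t < 100, ∀ b, Y t ∈ (fun t => Y t) '' {t | t < 100 ∧ bk t = b} → bk t = b := by
    rintro t ht b ⟨t', ⟨h1, h2⟩, h3⟩
    have := hinj _ h1 _ ht h3
    rw [← this, h2]
  have hdisj12 : Disjoint (orbit ↥H (g1 : G ⧸ H)) (orbit ↥H (g2 : G ⧸ H)) := by
    rw [Set.disjoint_left]
    intro x h1 h2
    have a1 : F x ∈ F '' orbit ↥H (g1 : G ⧸ H) := ⟨x, h1, rfl⟩
    have a2 : F x ∈ F '' orbit ↥H (g2 : G ⧸ H) := ⟨x, h2, rfl⟩
    rw [k1] at a1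
    rw [k2] at a2
    obtain ⟨t, ⟨ht, hb1⟩, e⟩ := a1
    obtain ⟨t', ⟨ht', hb2⟩, e'⟩ := a2
    have := hinj _ ht _ ht' (e.trans e'.symm)
    rw [this, hb2] at hb1
    simp at hb1
  have hnot : ∀ (g : G) (b : ℕ), b ≠ 0 → F '' orbit ↥H (g : G ⧸ H) = (fun t => Y t) '' {t | t < 100 ∧ bk t = b} →
      ((1 : G) : G ⧸ H) ∉ orbit ↥H (g : G ⧸ H) := by
    intro g b hb0 hk hm
    have a1 : F ((1 : G) : G ⧸ H) ∈ F '' orbit ↥H (g : G ⧸ H) := ⟨_, hm, rfl⟩
    rw [hk, hF1] at a1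
    obtain ⟨t, ⟨ht, hb1⟩, e⟩ := a1
    have := hinj _ ht 0 (by norm_num) e
    rw [this] at hb1
    exact hb0 (by simpa [bk] using hb1.symm)
  have hn1 := hnot g1 1 (by norm_num) k1
  have hn2 := hnot g2 2 (by norm_num) k2
  have hcard : Nat.card (G ⧸ H) = 100 := hindex
  have hu : (insert ((1 : G) : G ⧸ H) (orbit ↥H (g1 : G ⧸ H) ∪ orbit ↥H (g2 : G ⧸ H))).ncard ≤ 100 := by
    rw [← hcard, ← Set.ncard_univ]
    exact Set.ncard_le_ncard (Set.subset_univ _) (Set.toFinite _)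
  have hu2 : (insert ((1 : G) : G ⧸ H) (orbit ↥H (g1 : G ⧸ H) ∪ orbit ↥H (g2 : G ⧸ H))).ncard =
      (orbit ↥H (g1 : G ⧸ H)).ncard + (orbit ↥H (g2 : G ⧸ H)).ncard + 1 := by
    rw [Set.ncard_insert_of_notMem (by
      rintro (h | h)
      · exact hn1 h
      · exact hn2 h) (Set.toFinite _), Set.ncard_union_eq hdisj12 (Set.toFinite _) (Set.toFinite _)]
  refine ⟨(g1 : G ⧸ H), (g2 : G ⧸ H), ?_, ?_⟩ <;> omega

end Orb

end Cfsg.Agent.Lib.J2U
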