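/-
Checks for the subgroup of index 100 of the Hall-Janko group.
-/
import Cfsg.Agent.Lib.J2I.Simple
import Cfsg.Agent.Lib.J2U.Abs
import Cfsg.Agent.Lib.J2U.Data
import Cfsg.Agent.Lib.Components.U33Kit
import Cfsg.Agent.Lib.KnownSimple.LabKit

set_option autoImplicit false
set_option maxRecDepth 100000

namespace Cfsg.Agent.Lib.J2U

open Cfsg.Agent.Lib.J2I Cfsg.Agent.Lib.LeechP
open Cfsg.Agent.Lib.KnownSimple.Lab (allI)

/-- The tables of the generators. -/
def TGl : List ℕ := [TG0, TG1, TG2, TG3]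

/-- A letter on a point. -/
def tg (k a : ℕ) : ℕ := gt (TGl.getD k 0) 9 a

/-- The table of a generator of the subgroup. -/
def qt (k a : ℕ) : ℕ := gt (bif Nat.beq k 0 then QT0 else QT1) 9 a

/-- A word on a point. -/
def wk : List ℕ → ℕ → ℕ
  | [], a => a
  | k :: w, a => tg k (wk w a)

theorem c_LL : LL = Lall := by decide +kernel

theorem c_len : LL.length = 315 := by decide +kernel

/-- The check of a letter on a point. -/
noncomputable def chkT (k a : ℕ) : Bool :=
  forceN (evalM (gk k).1 (LL.getD a 0)) fun m => forceN (tg k a) fun t =>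
    Nat.blt t 315 && Nat.beq (sigN m) (sigN (LL.getD t 0))

theorem c_T0 : allI (chkT 0) 0 315 = true := by decide +kernel
theorem c_T1 : allI (chkT 1) 0 315 = true := by decide +kernel
theorem c_T2 : allI (chkT 2) 0 315 = true := by decide +kernel
theorem c_T3 : allI (chkT 3) 0 315 = true := by decide +kernel

/-- The check of the words of the generators. -/
def chkW (a : ℕ) : Bool := Nat.beq (qt 0 a) (wk W0 a) && Nat.beq (qt 1 a) (wk W1 a)

theorem c_W : allI chkW 0 315 = true := by decide +kernel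

theorem c_words : (∀ k ∈ W0, k < 4) ∧ (∀ k ∈ W1, k < 4) ∧ (∀ k ∈ w1, k < 4) ∧ (∀ k ∈ w2, k < 4) := by decide +kernel

/-- The images of the base. -/
def dat (i j : ℕ) : ℕ := gt DT 9 (i * 2 + j)

/-- The base. -/
def cb (j : ℕ) : ℕ := bif Nat.beq j 0 then 10 else 75

open Cfsg.Agent.Lib.Components.U33 in
/-- The check of the images of the base. -/
def chkD (i : ℕ) : Bool :=
  Nat.blt (dat i 0) 315 && Nat.blt (dat i 1) 315 &&
    Nat.beq (qt 0 (dat i 0)) (dat (nx 0 i) 0) && Nat.beq (qt 0 (dat i 1)) (dat (nx 0 i) 1) &&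
    Nat.beq (qt 1 (dat i 0)) (dat (nx 1 i) 0) && Nat.beq (qt 1 (dat i 1)) (dat (nx 1 i) 1) &&
    (Nat.beq i i0 || !(Nat.beq (dat i 0) 10 && Nat.beq (dat i 1) 75))

theorem c_D : allI chkD 0 6048 = true := by decide +kernel

open Cfsg.Agent.Lib.Components.U33 in
theorem c_d0 : dat i0 0 = cb 0 ∧ dat i0 1 = cb 1 := by decide +kernel

/-- The check of the cover. -/
def chkCov (a : ℕ) : Bool :=
  Nat.blt (gt COV 16 a / 8) 6048 && Nat.blt (gt COV 16 a % 8) 2 && Nat.beq (dat (gt COV 16 a / 8) (gt COV 16 a % 8)) a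

theorem c_cov : allI chkCov 0 315 = true := by decide +kernel

theorem c_AB_len : AB.length = 100 := by decide +kernel

theorem c_AB_sorted : ∀ L ∈ AB, L.Pairwise (· < ·) ∧ ∀ a ∈ L, a < 315 := by decide +kernel

theorem c_AB_nd : AB.Nodup := by decide +kernel

/-- The action on the sets. -/
def nxA (k t : ℕ) : ℕ := gt (bif Nat.beq k 0 then NA0 else NA1) 7 t

/-- Equal underlying sets. -/
def sameL (L L' : List ℕ) : Bool := L.all (fun a => L'.any (Nat.beq a)) && L'.all (fun a => L.any (Nat.beq a))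

/-- The check of the action on the sets. -/
def chkA (t : ℕ) : Bool :=
  Nat.blt (nxA 0 t) 100 && Nat.blt (nxA 1 t) 100 && decide (bk (nxA 0 t) = bk t) && decide (bk (nxA 1 t) = bk t) &&
    sameL ((AB.getD t []).map (qt 0)) (AB.getD (nxA 0 t) []) && sameL ((AB.getD t []).map (qt 1)) (AB.getD (nxA 1 t) [])

theorem c_A : allI chkA 0 100 = true := by decide +kernel

/-- The parent of a set. -/
def parA (t : ℕ) : ℕ := gt PA 7 t

/-- The letter of a set. -/
def kgA (t : ℕ) : ℕ := gt KA 1 t

/-- The check of the trees of the orbits. -/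
def chkR (t : ℕ) : Bool :=
  decide (t = rt t) || (Nat.blt (parA t) t && decide (rt (parA t) = rt t) && Nat.blt (kgA t) 2 && Nat.beq (nxA (kgA t) (parA t)) t)

theorem c_R : allI chkR 0 100 = true := by decide +kernel

theorem c_w1 : sameL ((AB.getD 0 []).map (wk w1)) (AB.getD 1 []) = true := by decide +kernel

theorem c_w2 : sameL ((AB.getD 0 []).map (wk w2)) (AB.getD 37 []) = true := by decide +kernel

end Cfsg.Agent.Lib.J2U
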