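/-
Labels of the special unitary group in dimension three over the field with nine elements.
-/
import Cfsg.Agent.Lib.Components.U33Con
import Cfsg.Agent.Lib.Components.U33ChkC1
import Cfsg.Agent.Lib.Components.U33ChkC2

set_option autoImplicit false
set_option maxRecDepth 100000

namespace Cfsg.Agent.Lib.J2U

open Cfsg Cfsg.Agent.Lib.KnownSimple.Lab Cfsg.Agent.Lib.KnownSimple.LabMat
open Cfsg.Agent.Lib.KnownSimple.LabField Cfsg.Agent.Lib.KnownSimple.LabVec Cfsg.Agent.Lib.KnownSimple.LabSU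
open Cfsg.Agent.Lib.Components.U33

theorem hC_all : ∀ i < N, chkC i = true := by
  have h1 := allI_join (y := 3024) allI_start chkC_part1 rfl
  exact allI_join (y := 6048) h1 chkC_part2 rfl

theorem su_labels {F : Type*} [Field F] [Fintype F] (hF' : Fintype.card F = 3 ^ 2) (R : Rep F 9 add9 mul9) :
    ∃ (e : ℕ → Cfsg.SU 3 F 3) (idx : Cfsg.SU 3 F 3 → ℕ) (γ : ℕ → Cfsg.SU 3 F 3),
      (∀ i < N, idx (e i) = i) ∧ (∀ g, idx g < N ∧ e (idx g) = g) ∧ e i0 = 1 ∧
      (∀ k < 2, ∀ i < N, γ k * e i = e (nx k i)) := by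
  classical
  have hC := hC_all
  have hcard := card_su33 (F := F) hF'
  have hfin : Finite (Cfsg.SU 3 F 3) := Nat.finite_of_card_ne_zero (by rw [hcard]; norm_num)
  let hft : Fintype (Cfsg.SU 3 F 3) := Fintype.ofFinite _
  have hlab : ∀ i : ℕ, ∃ g : Cfsg.SU 3 F 3, i < N → suHom 3 F 3 g = toM R.φ 3 (cd i) := by
    intro i
    by_cases hi : i < N
    · obtain ⟨g, hg⟩ := exists_lab hF' R hC i hi
      exact ⟨g, fun _ => hg⟩
    · exact ⟨1, fun h => absurd h hi⟩
  choose e he using hlab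
  have hinj : Function.Injective (fun i : Fin N => e i) := by
    intro i j hij
    have h1 : toM R.φ 3 (cd i) = toM R.φ 3 (cd j) := by
      rw [← he i i.2, ← he j j.2]
      exact congrArg _ hij
    obtain ⟨-, -, -, -, h2, -⟩ := chkC_spec (hC i i.2)
    obtain ⟨-, -, -, -, h3, -⟩ := chkC_spec (hC j j.2)
    exact Fin.ext (enc_inj hC i.2 j.2 (digits_inj R h2 h3 h1))
  have hbij : Function.Bijective (fun i : Fin N => e i) := by
    rw [Fintype.bijective_iff_injective_and_card]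
    refine ⟨hinj, ?_⟩
    rw [Fintype.card_fin, ← Nat.card_eq_fintype_card, hcard]
    rfl
  choose idf hidf using hbij.2
  let idx : Cfsg.SU 3 F 3 → ℕ := fun g => (idf g : ℕ)
  have hidx : ∀ i < N, idx (e i) = i := by
    intro i hi
    have h1 := hinj (a₁ := idf (e i)) (a₂ := ⟨i, hi⟩) (hidf (e i))
    show ((idf (e i) : Fin N) : ℕ) = i
    rw [h1]
  have hidx' : ∀ g, idx g < N ∧ e (idx g) = g := fun g => ⟨(idf g).2, hidf g⟩
  have he0 : e i0 = 1 := by
    apply suHom_inj
    rw [he i0 (by decide), map_one, c_id, toM_idC R.h0 R.h1]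
  have hγ : ∀ k < 2, ∀ i < N, gam hF' R k * e i = e (nx k i) := by
    intro k hk i hi
    apply suHom_inj
    rw [map_mul, he i hi, step hF' R hC hk hi, he _ (nx_lt hk (hC i hi))]
  exact ⟨e, idx, gam hF' R, hidx, hidx', he0, hγ⟩

end Cfsg.Agent.Lib.J2U
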