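/-
The subgroup of index 100 of the Hall-Janko group, isomorphic to the unitary group.
-/
import Cfsg.Agent.Lib.J2U.Chk
import Cfsg.Agent.Lib.J2U.Lab

set_option autoImplicit false
set_option maxRecDepth 100000

namespace Cfsg.Agent.Lib.J2U

open Cfsg.Spor Cfsg.Agent.Lib.J2I Cfsg.Agent.Lib.LeechP Cfsg.Agent.Lib.M24 Cfsg.Agent.Lib.Golay
open Cfsg.Agent.Lib.KnownSimple.Lab (allI of_allI)
open Cfsg.Agent.Lib.KnownSimple.LabField

/-- A reflection as an element of the group. -/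
noncomputable def Rt (n : ℕ) : twoJ2 := ⟨Rp n, by
  unfold Rp
  split_ifs with h
  · exact Subgroup.subset_closure (reflPerm_isRefl _ _ _)
  · exact Subgroup.one_mem _⟩

/-- A point. -/
noncomputable def Pt (a : ℕ) : twoJ2 := Rt (LL.getD a 0)

lemma LL_mem {a : ℕ} (ha : a < 315) : LL.getD a 0 ∈ Lall := by
  rw [← c_LL]
  have hl : a < LL.length := by rw [c_len]; exact ha
  rw [List.getD_eq_getElem _ _ hl]
  exact List.getElem_mem _

lemma Rt_eq {m n : ℕ} (h : Rn m = Rn n) : Rt m = Rt n := Subtype.ext h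

lemma conj_Rt {g : twoJ2} {n m : ℕ} (hn : vec n ∈ Zs) (hm : vec m ∈ Zs) {x : icoLeech} (hx : x.1 = vec n)
    (e : (g.1 x).1 = vec m) : g * Rt n * g⁻¹ = Rt m := by
  apply Subtype.ext
  have h := smul_Rn (g := g) hn hm hx e
  have h2 := congrArg RX.p h
  rw [smul_def'] at h2
  exact h2

lemma sig_Rn {m n : ℕ} (hm : vec m ∈ Zs) (hn : n ∈ Lall) (hs : sigN m = sigN n) : Rn m = Rn n := by
  obtain ⟨n', hn', e⟩ := Lall_cover (Rn_isRefl hm)
  have h1 := sigN_of_Rn (Lall_good hn').2 hm e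
  have h2 : n' = n := List.inj_on_of_nodup_map Lall_map_nodup hn' hn (h1.trans hs)
  rw [← e, h2]

lemma chkT_spec {k a : ℕ} (hk : k < 4) (ha : a < 315) :
    tg k a < 315 ∧ sigN (evalM (gk k).1 (LL.getD a 0)) = sigN (LL.getD (tg k a) 0) := by
  have h : chkT k a = true := by
    have hk' : k = 0 ∨ k = 1 ∨ k = 2 ∨ k = 3 := by omega
    rcases hk' with rfl | rfl | rfl | rfl
    · exact of_allI c_T0 a (by omega) (by omega)
    · exact of_allI c_T1 a (by omega) (by omega)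
    · exact of_allI c_T2 a (by omega) (by omega)
    · exact of_allI c_T3 a (by omega) (by omega)
  simp only [chkT, forceN_eq, Bool.and_eq_true] at h
  exact ⟨blt_sound h.1, Nat.eq_of_beq_eq_true h.2⟩

lemma one_letter {k : ℕ} (hk : k < 4) : ∃ g : twoJ2, ∀ a < 315, tg k a < 315 ∧ g * Pt a * g⁻¹ = Pt (tg k a) := by
  obtain ⟨g, hg, hh⟩ := exists_word (w := [k]) (by simpa using hk)
  refine ⟨⟨g, hg⟩, fun a ha => ?_⟩
  have hchk := chkT_spec hk ha
  refine ⟨hchk.1, ?_⟩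
  have hn := LL_mem ha
  obtain ⟨hv, hz⟩ := Lall_good hn
  have hx : (⟨vec (LL.getD a 0), hz.1⟩ : icoLeech).1 = vec (LL.getD a 0) := rfl
  obtain ⟨c1, c2⟩ := hh (LL.getD a 0) hv hz ⟨vec (LL.getD a 0), hz.1⟩ rfl
  have hz3 : vec (wordA [k] (LL.getD a 0)) ∈ Zs := c1 ▸ Zs_image hg (Zs_congr hx hz)
  have h1 := conj_Rt (g := ⟨g, hg⟩) hz hz3 hx c1
  have h2 : Rt (wordA [k] (LL.getD a 0)) = Pt (tg k a) := Rt_eq (sig_Rn hz3 (LL_mem hchk.1) hchk.2)
  rw [← h2, ← h1]
  rfl

/-- The action of the quotient by conjugation. -/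
noncomputable def rho : J2 →* Equiv.Perm twoJ2 :=
  QuotientGroup.lift (Subgroup.center twoJ2) ((MulAut.toPerm twoJ2).comp MulAut.conj) (by
    intro z hz
    apply Equiv.ext
    intro y
    show z * y * z⁻¹ = y
    rw [← Subgroup.mem_center_iff.1 hz y]
    group)

lemma rho_mk (g y : twoJ2) : rho (g : J2) y = g * y * g⁻¹ := rfl

lemma word_act (w : List ℕ) (hw : ∀ k ∈ w, k < 4) :
    ∃ x : J2, ∀ a < 315, wk w a < 315 ∧ rho x (Pt a) = Pt (wk w a) := by
  induction w with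
  | nil => exact ⟨1, fun a ha => ⟨ha, by simp [wk]⟩⟩
  | cons k w ih =>
    obtain ⟨x, hx⟩ := ih (fun j hj => hw j (List.mem_cons_of_mem _ hj))
    obtain ⟨g, hg⟩ := one_letter (hw k List.mem_cons_self)
    refine ⟨(g : J2) * x, fun a ha => ?_⟩
    obtain ⟨h1, h2⟩ := hx a ha
    obtain ⟨h3, h4⟩ := hg _ h1
    refine ⟨h3, ?_⟩
    rw [map_mul, Equiv.Perm.mul_apply, h2, rho_mk, h4]
    rfl

lemma LL_pos {n : ℕ} (hn : n ∈ Lall) : ∃ a < 315, LL.getD a 0 = n := by
  rw [← c_LL] at hn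
  obtain ⟨a, ha, rfl⟩ := List.mem_iff_getElem.1 hn
  refine ⟨a, by rwa [c_len] at ha, ?_⟩
  rw [List.getD_eq_getElem _ _ ha]

lemma faith (x : J2) (h : ∀ a < 315, rho x (Pt a) = Pt a) : x = 1 := by
  obtain ⟨g, rfl⟩ := QuotientGroup.mk_surjective x
  apply (QuotientGroup.eq_one_iff g).2
  rw [Subgroup.mem_center_iff]
  intro y
  have hrefl : ∀ f : Equiv.Perm icoLeech, IsIcoReflection f → f * g.1 = g.1 * f := by
    intro f hf
    obtain ⟨n, hn, e⟩ := Lall_cover (f := toRX f) hf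
    obtain ⟨a, ha, rfl⟩ := LL_pos hn
    have h1 := h a ha
    rw [rho_mk] at h1
    have h2 : g.1 * (Pt a).1 * g.1⁻¹ = (Pt a).1 := congrArg Subtype.val h1
    have h3 : (Pt a).1 = f := e
    rw [h3] at h2
    have h4 : g.1 * f * g.1⁻¹ = f := h2
    exact (mul_inv_eq_iff_eq_mul.1 h4).symm
  have key : ∀ x ∈ Subgroup.closure {f : Equiv.Perm icoLeech | IsIcoReflection f}, x * g.1 = g.1 * x := by
    intro x hx
    induction hx using Subgroup.closure_induction with
    | mem x hx => exact hrefl x hx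
    | one => simp
    | mul x y _ _ ih1 ih2 => rw [mul_assoc, ih2, ← mul_assoc, ih1, mul_assoc]
    | inv x _ ih =>
      exact Commute.inv_left (show Commute x g.1 from ih)
  apply Subtype.ext
  exact key y.1 y.2

lemma Pt_inj {a b : ℕ} (ha : a < 315) (hb : b < 315) (h : Pt a = Pt b) : a = b := by
  have h1 : Rn (LL.getD a 0) = Rn (LL.getD b 0) := congrArg Subtype.val h
  have h2 := Rn_inj (LL_mem ha) (LL_mem hb) h1
  have hnd : LL.Nodup := c_LL ▸ Lall_nodup
  have hla : a < LL.length := by rw [c_len]; exact ha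
  have hlb : b < LL.length := by rw [c_len]; exact hb
  rw [List.getD_eq_getElem _ _ hla, List.getD_eq_getElem _ _ hlb] at h2
  exact (List.Nodup.getElem_inj_iff hnd).1 h2

/-! ### Sets of points -/

/-- The set of points of a list. -/
def Sp (L : List ℕ) : Set twoJ2 := Pt '' {a | a ∈ L}

lemma Sp_image {x : J2} {Q : ℕ → ℕ} (hx : ∀ a < 315, rho x (Pt a) = Pt (Q a)) {L : List ℕ} (hL : ∀ a ∈ L, a < 315) :
    rho x '' Sp L = Sp (L.map Q) := by
  ext y
  constructor
  · rintro ⟨_, ⟨a, ha, rfl⟩, rfl⟩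
    exact ⟨Q a, List.mem_map.2 ⟨a, ha, rfl⟩, (hx a (hL a ha)).symm⟩
  · rintro ⟨b, hb, rfl⟩
    obtain ⟨a, ha, rfl⟩ := List.mem_map.1 hb
    exact ⟨_, ⟨a, ha, rfl⟩, hx a (hL a ha)⟩

lemma sameL_mem {L L' : List ℕ} (h : sameL L L' = true) : ∀ a, a ∈ L ↔ a ∈ L' := by
  simp only [sameL, Bool.and_eq_true, List.all_eq_true, List.any_eq_true] at h
  intro a
  constructor
  · intro ha
    obtain ⟨b, hb, e⟩ := h.1 a ha
    rwa [Nat.eq_of_beq_eq_true e]
  · intro ha
    obtain ⟨b, hb, e⟩ := h.2 a ha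
    rwa [Nat.eq_of_beq_eq_true e]

lemma Sp_same {L L' : List ℕ} (h : sameL L L' = true) : Sp L = Sp L' := by
  have : {a | a ∈ L} = {a | a ∈ L'} := Set.ext (sameL_mem h)
  rw [Sp, Sp, this]

lemma AB_mem {t : ℕ} (ht : t < 100) : AB.getD t [] ∈ AB := by
  have hl : t < AB.length := by rw [c_AB_len]; exact ht
  rw [List.getD_eq_getElem _ _ hl]
  exact List.getElem_mem _

lemma AB_lt {t : ℕ} (ht : t < 100) : ∀ a ∈ AB.getD t [], a < 315 := (c_AB_sorted _ (AB_mem ht)).2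

/-- The family of sets. -/
def Yf (t : ℕ) : Set twoJ2 := Sp (AB.getD t [])

lemma Yf_inj : ∀ t < 100, ∀ t' < 100, Yf t = Yf t' → t = t' := by
  intro t ht t' ht' h
  have h1 := c_AB_sorted _ (AB_mem ht)
  have h2 := c_AB_sorted _ (AB_mem ht')
  have hm : ∀ a, a ∈ AB.getD t [] ↔ a ∈ AB.getD t' [] := by
    intro a
    constructor
    · intro ha
      have : Pt a ∈ Yf t' := h ▸ (⟨a, ha, rfl⟩ : Pt a ∈ Yf t)
      obtain ⟨b, hb, e⟩ := this
      rwa [← Pt_inj (h2.2 b hb) (h1.2 a ha) e]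
    · intro ha
      have : Pt a ∈ Yf t := h.symm ▸ (⟨a, ha, rfl⟩ : Pt a ∈ Yf t')
      obtain ⟨b, hb, e⟩ := this
      rwa [← Pt_inj (h1.2 b hb) (h2.2 a ha) e]
  have hn1 : (AB.getD t []).Nodup := h1.1.imp (fun h => Nat.ne_of_lt h)
  have hn2 : (AB.getD t' []).Nodup := h2.1.imp (fun h => Nat.ne_of_lt h)
  have hp := (List.perm_ext_iff_of_nodup hn1 hn2).2 hm
  have he : AB.getD t [] = AB.getD t' [] :=
    List.Perm.eq_of_pairwise (le := (· < ·)) (fun a b _ _ h3 h4 => absurd h3 (Nat.lt_asymm h4)) h1.1 h2.1 hp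
  have hla : t < AB.length := by rw [c_AB_len]; exact ht
  have hlb : t' < AB.length := by rw [c_AB_len]; exact ht'
  rw [List.getD_eq_getElem _ _ hla, List.getD_eq_getElem _ _ hlb] at he
  exact (List.Nodup.getElem_inj_iff c_AB_nd).1 he

lemma chkA_spec {t : ℕ} (ht : t < 100) : ∀ k < 2, nxA k t < 100 ∧ bk (nxA k t) = bk t ∧
    sameL ((AB.getD t []).map (qt k)) (AB.getD (nxA k t) []) = true := by
  have h : chkA t = true := of_allI c_A t (by omega) (by omega)
  simp only [chkA, Bool.and_eq_true, decide_eq_true_eq] at h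
  obtain ⟨⟨⟨⟨⟨h1, h2⟩, h3⟩, h4⟩, h5⟩, h6⟩ := h
  intro k hk
  have hk' : k = 0 ∨ k = 1 := by omega
  rcases hk' with rfl | rfl
  · exact ⟨blt_sound h1, h3, h5⟩
  · exact ⟨blt_sound h2, h4, h6⟩

lemma chkD_spec {i : ℕ} (hi : i < 6048) :
    dat i 0 < 315 ∧ dat i 1 < 315 ∧
    qt 0 (dat i 0) = dat (Cfsg.Agent.Lib.Components.U33.nx 0 i) 0 ∧ qt 0 (dat i 1) = dat (Cfsg.Agent.Lib.Components.U33.nx 0 i) 1 ∧
    qt 1 (dat i 0) = dat (Cfsg.Agent.Lib.Components.U33.nx 1 i) 0 ∧ qt 1 (dat i 1) = dat (Cfsg.Agent.Lib.Components.U33.nx 1 i) 1 ∧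
    (dat i 0 = 10 → dat i 1 = 75 → i = Cfsg.Agent.Lib.Components.U33.i0) := by
  have h : chkD i = true := of_allI c_D i (by omega) (by omega)
  simp only [chkD, Bool.and_eq_true, Bool.or_eq_true, Bool.not_eq_true'] at h
  obtain ⟨⟨⟨⟨⟨⟨h1, h2⟩, h3⟩, h4⟩, h5⟩, h6⟩, h7⟩ := h
  refine ⟨blt_sound h1, blt_sound h2, Nat.eq_of_beq_eq_true h3, Nat.eq_of_beq_eq_true h4, Nat.eq_of_beq_eq_true h5,
    Nat.eq_of_beq_eq_true h6, ?_⟩
  intro e1 e2
  rcases h7 with h7 | h7
  · exact Nat.eq_of_beq_eq_true h7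
  · rw [e1, e2] at h7
    simp at h7

/-- The subgroup. -/
theorem main_sub : ∃ H : Subgroup J2, H.index = 100 ∧
    (∃ (F : Type) (_ : Field F) (_ : Fintype F), Fintype.card F = 9 ∧ Nonempty (↥H ≃* Cfsg.PSU 3 F 3)) ∧
    ∃ c₁ c₂ : J2 ⧸ H, (MulAction.orbit ↥H c₁).ncard = 36 ∧ (MulAction.orbit ↥H c₂).ncard = 63 := by
  classical
  haveI : Fact (Nat.Prime 3) := ⟨by norm_num⟩
  letI : Fintype (GaloisField 3 2) := Fintype.ofFinite _
  have hF : Fintype.card (GaloisField 3 2) = 9 := by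
    rw [← Nat.card_eq_fintype_card, GaloisField.card 3 2 (by norm_num)]
    norm_num
  have hF' : Fintype.card (GaloisField 3 2) = 3 ^ 2 := by rw [hF]; norm_num
  obtain ⟨R⟩ := exists_rep9 hF
  obtain ⟨e, idx, γ, hidx, hidx', he0, hγ⟩ := su_labels hF' R
  have hcS : Nat.card (Cfsg.SU 3 (GaloisField 3 2) 3) = 6048 := Cfsg.Agent.Lib.Components.U33.card_su33 hF'
  haveI hfS : Finite (Cfsg.SU 3 (GaloisField 3 2) 3) := Nat.finite_of_card_ne_zero (by rw [hcS]; norm_num)
  haveI hfJ : Finite J2 := Nat.finite_of_card_ne_zero (by rw [J2_card]; norm_num)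
  obtain ⟨x0, h0⟩ := word_act W0 c_words.1
  obtain ⟨x1, h1⟩ := word_act W1 c_words.2.1
  let Γ : ℕ → J2 := fun k => if k = 0 then x0 else x1
  have hqt : ∀ a < 315, qt 0 a = wk W0 a ∧ qt 1 a = wk W1 a := by
    intro a ha
    have h : chkW a = true := of_allI c_W a (by omega) (by omega)
    simp only [chkW, Bool.and_eq_true] at h
    exact ⟨Nat.eq_of_beq_eq_true h.1, Nat.eq_of_beq_eq_true h.2⟩
  have hΓ : ∀ k < 2, ∀ a < 315, qt k a < 315 ∧ rho (Γ k) (Pt a) = Pt (qt k a) := by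
    intro k hk a ha
    have hk' : k = 0 ∨ k = 1 := by omega
    rcases hk' with rfl | rfl
    · rw [(hqt a ha).1]
      exact h0 a ha
    · rw [(hqt a ha).2]
      exact h1 a ha
  have hN : Cfsg.Agent.Lib.Components.U33.N = 6048 := rfl
  obtain ⟨H, ⟨iso⟩, hmem, hind⟩ := exists_sub rho Pt 315 Cfsg.Agent.Lib.Components.U33.N 2 Cfsg.Agent.Lib.Components.U33.i0 e idx γ
    Cfsg.Agent.Lib.Components.U33.nx Γ qt cb dat faith (fun a ha b hb h => Pt_inj ha hb h) hidx hidx' he0 (by decide) hγ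
    (fun k hk i hi => Cfsg.Agent.Lib.Components.U33.nx_lt hk (hC_all i hi))
    (fun P h0 hs => Cfsg.Agent.Lib.Components.U33.tree_ind hC_all P h0 hs)
    hΓ
    (by
      intro j hj
      have hj' : j = 0 ∨ j = 1 := by omega
      rcases hj' with rfl | rfl
      · exact c_d0.1
      · exact c_d0.2)
    (by
      intro i hi j hj
      have := chkD_spec (i := i) hi
      have hj' : j = 0 ∨ j = 1 := by omega
      rcases hj' with rfl | rfl
      · exact this.1
      · exact this.2.1)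
    (by
      intro k hk i hi j hj
      have := chkD_spec (i := i) hi
      have hk' : k = 0 ∨ k = 1 := by omega
      have hj' : j = 0 ∨ j = 1 := by omega
      obtain ⟨a1, a2, a3, a4, a5, a6, _⟩ := this
      rcases hk' with rfl | rfl <;> rcases hj' with rfl | rfl <;> assumption)
    (by
      intro i hi h
      exact (chkD_spec (i := i) hi).2.2.2.2.2.2 (h 0 (by norm_num)) (h 1 (by norm_num)))
    (by
      intro a ha
      have h : chkCov a = true := of_allI c_cov a (by omega) (by omega)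
      simp only [chkCov, Bool.and_eq_true] at h
      exact ⟨_, blt_sound h.1.1, _, blt_sound h.1.2, Nat.eq_of_beq_eq_true h.2⟩)
  have hcH : Nat.card H = 6048 := (Nat.card_congr iso.toEquiv).trans hcS
  have hindex : H.index = 100 := by
    have h2 := Subgroup.card_mul_index H
    rw [hcH, J2_card] at h2
    omega
  refine ⟨H, hindex, ?_, ?_⟩
  · refine ⟨GaloisField 3 2, inferInstance, inferInstance, hF, ?_⟩
    have hz : Subgroup.center (Cfsg.SU 3 (GaloisField 3 2) 3) = ⊥ := by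
      apply Subgroup.eq_bot_of_card_eq
      rw [Cfsg.Agent.Lib.Classical.card_center_su hF' (by norm_num)]
      norm_num
    let π : Cfsg.SU 3 (GaloisField 3 2) 3 →* Cfsg.PSU 3 (GaloisField 3 2) 3 := QuotientGroup.mk' _
    have hbij : Function.Bijective π := by
      refine ⟨?_, QuotientGroup.mk'_surjective _⟩
      rw [← MonoidHom.ker_eq_bot_iff, QuotientGroup.ker_mk', hz]
    exact ⟨iso.trans (MulEquiv.ofBijective π hbij)⟩
  · obtain ⟨g1, hg1⟩ := word_act w1 c_words.2.2.1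
    obtain ⟨g2, hg2⟩ := word_act w2 c_words.2.2.2
    refine orbits_abs H rho Yf hindex Yf_inj ?_ ?_ g1 g2 ?_ ?_
    · apply hind (p := fun h => ∀ t < 100, ∃ t' < 100, bk t' = bk t ∧ rho h '' Yf t = Yf t')
      · intro t ht
        refine ⟨t, ht, rfl, ?_⟩
        simp
      · intro k hk y hy t ht
        obtain ⟨t', ht', hb, hi⟩ := hy t ht
        obtain ⟨a1, a2, a3⟩ := chkA_spec ht' k hk
        refine ⟨nxA k t', a1, a2.trans hb, ?_⟩
        rw [image_mul, hi]
        show rho (Γ k) '' Sp (AB.getD t' []) = Sp (AB.getD (nxA k t') [])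
        rw [Sp_image (Q := qt k) (fun a ha => (hΓ k hk a ha).2) (AB_lt ht'), Sp_same a3]
    · intro t
      induction t using Nat.strong_induction_on with
      | _ t ih =>
        intro ht
        have h : chkR t = true := of_allI c_R t (by omega) (by omega)
        simp only [chkR, Bool.or_eq_true, Bool.and_eq_true, decide_eq_true_eq] at h
        rcases h with h | ⟨⟨⟨h1, h2⟩, h3⟩, h4⟩
        · refine ⟨1, H.one_mem, ?_⟩
          rw [← h]
          simp
        · have hp := blt_sound h1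
          have hk := blt_sound h3
          obtain ⟨y, hy, e⟩ := ih _ hp (by omega) 
          have hk2 : kgA t < 2 := hk
          refine ⟨Γ (kgA t) * y, H.mul_mem (hmem _ hk2) hy, ?_⟩
          rw [image_mul, ← h2, e]
          have hpl : parA t < 100 := by omega
          obtain ⟨a1, a2, a3⟩ := chkA_spec hpl _ hk2
          show rho (Γ (kgA t)) '' Sp (AB.getD (parA t) []) = Sp (AB.getD t [])
          rw [Sp_image (Q := qt (kgA t)) (fun a ha => (hΓ _ hk2 a ha).2) (AB_lt hpl), Sp_same a3,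
            Nat.eq_of_beq_eq_true h4]
    · show rho g1 '' Sp (AB.getD 0 []) = Sp (AB.getD 1 [])
      rw [Sp_image (Q := wk w1) (fun a ha => (hg1 a ha).2) (AB_lt (by norm_num)), Sp_same c_w1]
    · show rho g2 '' Sp (AB.getD 0 []) = Sp (AB.getD 37 [])
      rw [Sp_image (Q := wk w2) (fun a ha => (hg2 a ha).2) (AB_lt (by norm_num)), Sp_same c_w2]

end Cfsg.Agent.Lib.J2U
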